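import Cfsg.Agent.Lib.Helper3.J3.L3D
import Cfsg.Agent.Lib.Helper3.J3.Net

set_option autoImplicit false
set_option maxRecDepth 100000

namespace Cfsg.Agent.Lib.Helper3.J3.L3

open Cfsg.Agent.Lib.Helper11 Cfsg.Agent.Lib.Helper3

set_option maxHeartbeats 0

noncomputable def fc (i : ℕ) : ℕ := (fc0_0 i)
noncomputable def sc (i : ℕ) : ℕ := (sc0_0 i)
noncomputable def nc (i : ℕ) : ℕ := (nc0_0 i)
noncomputable def cc (i : ℕ) : ℕ := (cc0_0 i)

def isH (l : ℕ) : Bool := decide (l ∈ [])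
def gens : List ℕ := [7]
def hl : List ℕ := []
def dl : List (List ℕ × ℕ) := [([7], 8)]
def BR : List (List ℕ) := [[], [7, 7, 7, 7]]
def rt : RT := (.node 1 (.leaf 0 0 []) (.leaf 1 2 [7, 7, 7, 7]))

theorem b0 : allR (guardB 1 (blk fc sc rt.get Cfsg.Agent.Lib.Helper3.J3.INV isH)) 1 0 = true := by decide +kernel
theorem c0 : allR (guardB 1 (cblk fc nc cc 256 4 281474976710656 gens)) 1 0 = true := by decide +kernel

theorem chkAll : ∀ j < 1, blk fc sc rt.get Cfsg.Agent.Lib.Helper3.J3.INV isH j = true :=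
  guardB_spec (D := 1) b0 (by norm_num)

theorem clAll : ∀ jb < 1, cblk fc nc cc (256 * 1) 4 281474976710656 gens jb = true :=
  guardB_spec (D := 1) c0 (by norm_num)

theorem card_eq : Nat.card (lgrp (vL Cfsg.Agent.Lib.Helper3.J3.ntl Cfsg.Agent.Lib.Helper3.J3.deg) gens) = 4 * Nat.card (lgrp (vL Cfsg.Agent.Lib.Helper3.J3.ntl Cfsg.Agent.Lib.Helper3.J3.deg) hl) :=
  Cfsg.Agent.Lib.Helper3.J3.setup.level gens hl dl BR (by decide +kernel) (by decide +kernel) (by decide +kernel) (by decide +kernel)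
    (by decide +kernel) rt (by decide +kernel) isH (fun l h => of_decide_eq_true h) fc sc nc cc 1 1 4 281474976710656
    (by norm_num) (by norm_num) (by decide +kernel) (by decide) chkAll clAll
    2 2 3 (by norm_num [Cfsg.Agent.Lib.Helper3.J3.deg]) (by norm_num [Cfsg.Agent.Lib.Helper3.J3.deg]) (by decide +kernel) (by decide +kernel)

end Cfsg.Agent.Lib.Helper3.J3.L3
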