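import Cfsg.Agent.Lib.Helper3.J3.L1
import Cfsg.Agent.Lib.Helper3.J3.L2
import Cfsg.Agent.Lib.Helper3.J3.L3
import Cfsg.Agent.Lib.Helper3.Stcs5

set_option autoImplicit false
set_option maxRecDepth 100000

namespace Cfsg.Agent.Lib.Helper3.J3

open Cfsg.Agent.Lib.Helper11 Cfsg.Agent.Lib.Helper3 MulAction

set_option maxHeartbeats 0

theorem card_eq : Nat.card (lgrp (vL ntl deg) [1, 2]) = 50232960 := by
  have h1 := L1.card_eq
  have h2 := L2.card_eq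
  have h3 := L3.card_eq
  have h4 : Nat.card (lgrp (vL ntl deg) L3.hl) = 1 := by
    show Nat.card (lgrp (vL ntl deg) []) = 1
    rw [lgrp_nil]
    exact Subgroup.card_bot
  have e1 : lgrp (vL ntl deg) L1.hl = lgrp (vL ntl deg) L2.gens := rfl
  have e2 : lgrp (vL ntl deg) L2.hl = lgrp (vL ntl deg) L3.gens := rfl
  rw [e1, h2, e2, h3, h4] at h1
  exact h1

theorem pretrans : IsPretransitive (lgrp (vL ntl deg) [1, 2]) (Fin deg) :=
  setup.pretransitive [1, 2] 21 (by norm_num) (by decide +kernel)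

def sub : List (ℕ × ℕ × List ℕ × ℕ × ℕ) := [(1, 2040, [3, 1, 3, 1, 3, 1, 2, 1, 2, 1, 3, 1, 3, 1, 3, 1], 13, 7), (2041, 1360, [1, 2, 1, 3, 1, 2, 1, 3, 1, 2, 1, 3, 1, 3, 1, 2, 1, 3, 1, 3, 1], 13, 7), (3401, 680, [1, 3, 1, 2, 1, 3, 1, 2, 1, 2, 1, 2, 1, 3, 1, 3, 1, 2, 1, 3, 1, 3], 11, 7), (4081, 510, [1, 3, 1, 3, 1, 2, 1, 2, 1, 3, 1, 2], 11, 7), (4591, 1360, [1, 2, 1, 2, 1, 3, 1, 3, 1, 3, 1, 2, 1, 3, 1, 3, 1], 13, 7), (5951, 120, [2, 1, 3, 1, 3, 1, 2, 1, 3, 1, 3, 1, 3, 1, 3, 1, 2, 1, 2, 1, 3, 1, 2, 1], 8, 7), (6071, 85, [2, 1, 3, 1, 3, 1, 2, 1, 3, 1, 3, 1, 3, 1, 2, 1, 3, 1, 2, 1], 8, 7)]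

theorem okl : ∀ x ∈ dlLetters L1.gens L1.dl, vL ntl deg x ∈ lgrp (vL ntl deg) [1, 2] := by
  apply dlLetters_mem _ _ L1.dl L1.gens (fun x hx => mem_lgrp _ hx) _ (by decide +kernel)
  intro p hp
  exact setup.rels_of_wordId (L1.dl.map fun p => p.1 ++ [p.2]) (by decide +kernel) _
    (List.mem_map.2 ⟨p, hp, rfl⟩)

theorem prim : IsPreprimitive (lgrp (vL ntl deg) [1, 2]) (Fin deg) :=
  setup.primitive [1, 2] [4, 5] (dlLetters L1.gens L1.dl) (by norm_num) pretrans okl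
    (by decide +kernel) (by decide +kernel) sub (by decide +kernel) (by decide +kernel)
    (by decide +kernel)

theorem simple : IsSimpleGroup (lgrp (vL ntl deg) [1, 2]) := by
  haveI : Fact (Nat.Prime 19) := ⟨by norm_num⟩
  apply setup.simple_23 19 prim (by decide +kernel) (by decide +kernel) (by decide +kernel) 2835
    (by norm_num) (by norm_num) (by norm_num) (by decide +kernel) (by norm_num)
  rw [card_eq]
  norm_num

end Cfsg.Agent.Lib.Helper3.J3
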